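import Cfsg.Agent.OD.Pre
import Cfsg.Agent.H6.TCTop
import Cfsg.Agent.H6.J3T1.C
set_option autoImplicit false
set_option maxRecDepth 100000
set_option Elab.async false
set_option linter.all false
namespace CfH6.J3T1
open CfH6
theorem p0 : C.OkL 256 2048 := C.okL_of 256 14 0 2048 (by decide) (by decide +kernel)
theorem p1 : C.OkL 2048 3584 := C.okL_of 2048 12 0 3584 (by decide) (by decide +kernel)
theorem p2 : C.OkL 3584 4992 := C.okL_of 3584 11 0 4992 (by decide) (by decide +kernel)
theorem p3 : C.OkL 4992 6400 := C.okL_of 4992 11 0 6400 (by decide) (by decide +kernel)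
theorem p4 : C.OkL 6400 7808 := C.okL_of 6400 11 0 7808 (by decide) (by decide +kernel)
theorem p5 : C.OkL 7808 9216 := C.okL_of 7808 11 0 9216 (by decide) (by decide +kernel)
theorem p6 : C.OkL 9216 10752 := C.okL_of 9216 12 0 10752 (by decide) (by decide +kernel)
theorem p7 : C.OkL 10752 12160 := C.okL_of 10752 11 0 12160 (by decide) (by decide +kernel)
theorem p8 : C.OkL 12160 13568 := C.okL_of 12160 11 0 13568 (by decide) (by decide +kernel)
theorem p9 : C.OkL 13568 15104 := C.okL_of 13568 12 0 15104 (by decide) (by decide +kernel)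
theorem p10 : C.OkL 15104 16512 := C.okL_of 15104 11 0 16512 (by decide) (by decide +kernel)
theorem p11 : C.OkL 16512 18048 := C.okL_of 16512 12 0 18048 (by decide) (by decide +kernel)
theorem p12 : C.OkL 18048 19584 := C.okL_of 18048 12 0 19584 (by decide) (by decide +kernel)
theorem p13 : C.OkL 19584 21120 := C.okL_of 19584 12 0 21120 (by decide) (by decide +kernel)
theorem p14 : C.OkL 21120 22528 := C.okL_of 21120 11 0 22528 (by decide) (by decide +kernel)
theorem p15 : C.OkL 22528 23936 := C.okL_of 22528 11 0 23936 (by decide) (by decide +kernel)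
theorem p16 : C.OkL 23936 25344 := C.okL_of 23936 11 0 25344 (by decide) (by decide +kernel)
theorem p17 : C.OkL 25344 26419 := C.okL_of 25344 8 51 26419 (by decide) (by decide +kernel)
theorem p18 : C.OkR 26419 28595 := C.okR_of 26419 17 0 28595 (by decide) (by decide +kernel)
theorem p19 : C.OkR 28595 30771 := C.okR_of 28595 17 0 30771 (by decide) (by decide +kernel)
end CfH6.J3T1
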