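import Cfsg.Agent.OD.Pre
import Cfsg.Agent.H6.TCTop
import Cfsg.Agent.H6.J3T1.C
set_option autoImplicit false
set_option maxRecDepth 100000
set_option Elab.async false
set_option linter.all false
namespace CfH6.J3T1
open CfH6
theorem p20 : C.OkR 30771 30851 := C.okR_of 30771 0 80 30851 (by decide) (by decide +kernel)
end CfH6.J3T1
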